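import Cfsg.Agent.H832.MF.Rig
import Cfsg.Agent.H68.MeetBase
import Cfsg.Agent.KFacts.FiTF.FrameF
import Cfsg.Agent.KFacts.FiTTh.Has
import Cfsg.Agent.CpAut.Base
import Cfsg.Agent.Fischer.Fi23Simple

set_option autoImplicit false
set_option maxRecDepth 100000

/-!
# `Meet 3` for `Fi24'` and `Fi23` (helper832)

`meet3_Fi24`, `meet3_Fi23` : every 3-subgroup of `Aut T` meets a `T`-conjugate trivially.
-/

namespace Cfsg.Agent.H832.MF.Meet

open Subgroup Cfsg Cfsg.Agent.H903.SylMeet Cfsg.Agent.H68.MeetB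
open Cfsg.Agent.H832.MF.Dat Cfsg.Agent.H832.MF.Act Cfsg.Agent.H832.MF.Syl Cfsg.Agent.H832.MF.Rig
open Cfsg.Agent.Fischer.Fi24Rep Cfsg.Agent.KFacts.FiTF.Pts
open Cfsg.Agent.R08.FiTwentyFour (L facts mem_commutator_iff)
open Cfsg.Agent.Fischer.Fi24Final (sgn)
open Cfsg.Spor (Fi24 Fi23 Fi24')
open Cfsg.Spor.Fi24 (Gen)

/-- a subgroup of index prime to `p`, not necessarily a `p`-group, meeting a conjugate trivially -/
theorem meetIn_of_sub {p : ℕ} {T : Type*} [Group T] [Finite T] [Fact p.Prime] (K : Subgroup T) (hi : ¬ p ∣ K.index)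
    (h : ∃ x : T, ∀ y ∈ K, x * y * x⁻¹ ∈ K → y = 1) : MeetIn p T := by
  obtain ⟨x, hx⟩ := h
  obtain ⟨S⟩ : Nonempty (Sylow p K) := inferInstance
  refine MeetIn.of_one ((S : Subgroup K).map K.subtype) (S.isPGroup'.map _) ?_ ⟨x, ?_⟩
  · rw [Subgroup.index_map_subtype]
    intro h1
    rcases (Fact.out : p.Prime).dvd_mul.1 h1 with h2 | h2
    · exact S.not_dvd_index h2
    · exact hi h2
  · rintro _ ⟨y, -, rfl⟩ hxy
    obtain ⟨w, -, hw⟩ := hxy
    apply hx _ y.2
    have hw' : (w : T) = x * (y : T) * x⁻¹ := hw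
    rw [← hw']
    exact w.2

theorem even_sw {k : ℕ} (hk : k < 6) : sgn (word (sw k)) = 1 := by
  have key : ∀ w : List Gen, sgn (word w) = (-1) ^ w.length := by
    intro w
    induction w with
    | nil => rw [Cfsg.Agent.Fischer.Fi24Spider.word_nil, map_one]; rfl
    | cons y w ih =>
      rw [Cfsg.Agent.Fischer.Fi24Spider.word_cons, map_mul, ih, List.length_cons, pow_succ',
        show sgn (gen y) = -1 from Cfsg.Agent.Fischer.Fi24Final.sgn_gen y]
  rw [key]
  apply Even.neg_one_pow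
  rw [Nat.even_iff]
  interval_cases k <;> decide +kernel

theorem even_P {g : Fi24} (hg : g ∈ P) : sgn g = 1 := by
  have h1 : P ≤ sgn.ker := by
    rw [P, closure_le]
    rintro _ ⟨k, hk, rfl⟩
    exact even_sw hk
  exact h1 hg

theorem x_eq : x = gen .g * (gen .a * (gen .j * (gen .l * (gen .f * gen .g)))) := by
  unfold x xw word
  simp only [List.map_cons, List.map_nil, List.prod_cons, List.prod_nil, mul_one]

theorem even_x : sgn x = 1 := by
  have h : ∀ y : Gen, sgn (gen y) = -1 := fun y => Cfsg.Agent.Fischer.Fi24Final.sgn_gen y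
  rw [x_eq]
  simp only [map_mul, h]
  decide

/-! ### `Fi24'` -/

theorem finite24 : Finite Fi24 := R08.FiTwentyFour.finite_Fi24

theorem meetIn_fi24 : MeetIn 3 Fi24' := by
  have hfin := finite24
  have hle : P ≤ commutator Fi24 := fun g hg => mem_commutator_iff.2 (even_P hg)
  refine meetIn_of_sub (P.subgroupOf (commutator Fi24)) ?_ ⟨⟨x, mem_commutator_iff.2 even_x⟩, ?_⟩
  · intro h
    have h1 := (P.subgroupOf (commutator Fi24)).card_mul_index
    have h2 : Nat.card ↥(P.subgroupOf (commutator Fi24)) = Nat.card P :=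
      Nat.card_congr (subgroupOfEquivOfLe hle).toEquiv
    have h3 : 3 ^ 16 * 3 ∣ Nat.card Fi24' := by
      rw [← h1, h2]
      exact mul_dvd_mul three_pow h
    rw [show Nat.card Fi24' = 1255205709190661721292800 from R08.FiTwentyFour.card_commutator] at h3
    norm_num at h3
  · intro y hy hxy
    rw [mem_subgroupOf] at hy hxy
    exact Subtype.ext (eq_one hy hxy)

theorem autInner24 : CpAut.AutInner 3 Fi24' := by
  have hfin := finite24
  refine CpAut.autInner_of_index ?_ ?_
  · refine Nat.Coprime.coprime_dvd_left KFacts.FiTF.out ?_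
    norm_num
  · refine ⟨fun a ha b => ?_⟩
    obtain ⟨g, rfl⟩ := ha
    refine ⟨b g, ?_⟩
    ext x
    simp [MulAut.conj_apply]

theorem meet_fi24 : Cfsg.Agent.H903.SylMeet.Meet 3 Fi24' := by
  have hfin := finite24
  have hs : IsSimpleGroup Fi24' := R08.FiTwentyFour.isFi24'.1
  refine MeetIn.meet autInner24 (not_comm_of_card ?_) meetIn_fi24
  rw [show Nat.card Fi24' = 1255205709190661721292800 from R08.FiTwentyFour.card_commutator]
  norm_num

theorem meet3_Fi24 {G : Type*} [Group G] [Finite G] [IsSimpleGroup G] (h : Cfsg.Spor.IsoFi24' G) :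
    Cfsg.Agent.H903.SylMeet.Meet 3 G := by
  obtain ⟨e⟩ := h
  exact meet_fi24.congr e.symm

/-! ### `Fi23` -/

theorem pt_zero : pt 0 = 0 := by decide +kernel

/-- the stabiliser of `l` -/
theorem card_stab : 3 ^ 13 ∣ Nat.card ↥(P ⊓ centralizer ({gen .l} : Set Fi24)) := by
  have hfin := finite24
  refine stab_dvd (ρ := rho) (x := 0) three_pow (Set.range fun i : Fin 27 => pt i) ?_ (Set.finite_range _) ?_ ?_
  · rw [← Set.image_univ]
    refine (Set.ncard_image_le Set.finite_univ).trans ?_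
    rw [Set.ncard_univ, Nat.card_eq_fintype_card, Fintype.card_fin]
  · intro g hg
    obtain ⟨s, hs, -⟩ := exists_perm hg
    refine ⟨s 0, ?_⟩
    have h1 := hs 0
    rw [show pt ((0 : Fin 27) : ℕ) = 0 from pt_zero] at h1
    exact h1.symm
  · intro g
    rw [mem_centralizer_singleton_iff, fix_iff]

theorem card_comap : 3 ^ 13 ∣ Nat.card ↥(P.comap facts.phi) := by
  have h1 : (P.comap facts.phi).map facts.phi = P ⊓ centralizer ({gen .l} : Set Fi24) := by
    ext g
    rw [map_comap_eq, mem_inf, mem_inf, mem_centralizer_singleton_iff, MonoidHom.mem_range]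
    have h2 := facts.mem_range_iff g
    constructor
    · rintro ⟨h3, h4⟩
      exact ⟨h4, (h2.1 h3).1⟩
    · rintro ⟨h3, h4⟩
      exact ⟨h2.2 ⟨h4, even_P h3⟩, h3⟩
  have h2 : Nat.card ↥(P.comap facts.phi) = Nat.card ↥((P.comap facts.phi).map facts.phi) :=
    Nat.card_congr ((P.comap facts.phi).equivMapOfInjective _ facts.phi_injective).toEquiv
  rw [h2, h1]
  exact card_stab

theorem meetIn_fi23 : MeetIn 3 Fi23 := by
  have hfin := finite24
  have hcard : Nat.card Fi23 = 4089470473293004800 := Fischer.Fi23Simple.card_Fi23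
  have hfin23 : Finite Fi23 := Nat.finite_of_card_ne_zero (by rw [hcard]; norm_num)
  have hxl : x * gen .l = gen .l * x := by
    rw [← fix_iff]
    have h1 := rho_x (j := 0) (by norm_num)
    rw [bt_zero, pt_zero] at h1
    exact h1
  obtain ⟨x', hx'⟩ := (facts.mem_range_iff x).2 ⟨hxl, even_x⟩
  refine meetIn_of_sub (P.comap facts.phi) ?_ ⟨x', ?_⟩
  · intro h
    have h1 := (P.comap facts.phi).card_mul_index
    have h3 : 3 ^ 13 * 3 ∣ Nat.card Fi23 := by
      rw [← h1]
      exact mul_dvd_mul card_comap h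
    rw [hcard] at h3
    norm_num at h3
  · intro y hy hxy
    rw [mem_comap] at hy hxy
    rw [map_mul, map_mul, map_inv, hx'] at hxy
    apply facts.phi_injective
    rw [map_one]
    exact eq_one hy hxy

theorem meet3_Fi23 {G : Type*} [Group G] [Finite G] [IsSimpleGroup G] (h : Cfsg.Spor.IsoFi23 G) :
    Cfsg.Agent.H903.SylMeet.Meet 3 G := by
  have hcard : Nat.card Fi23 = 4089470473293004800 := Fischer.Fi23Simple.card_Fi23
  obtain ⟨e⟩ := h
  have hI : CpAut.AutInner 3 Fi23 := fun x _ => KFacts.FiTTh.Has.inn x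
  refine MeetIn.meet (CpAut.AutInner.congr e.symm hI) (not_comm_of_card ?_) (meetIn_fi23.congr e.symm)
  rw [Nat.card_congr e.toEquiv, hcard]
  norm_num

end Cfsg.Agent.H832.MF.Meet
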